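import Cfsg.Agent.Lib.Grp.H8Ord
import Cfsg.Agent.Lib.GW.GW15
import Cfsg.Agent.Lib.Grp.Kegel
import Cfsg.Agent.Lib.Grp.Frob
import Cfsg.Agent.Lib.Char.CharBurn

/-! Groups in which the numbers of elements of each order take three values. -/

set_option autoImplicit false
set_option linter.unusedSectionVars false

namespace CA.Ss3

open Subgroup Cfsg CA.BG CA.GW CA.H8Ord

variable {G : Type*} [Group G] [Finite G] {p q a b m : ℕ}

theorem tot_dvd (m : ℕ) : m.totient ∣ ss G m := by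
  classical
  haveI := Fintype.ofFinite G
  haveI := Fintype.ofFinite (Subgroup G)
  rw [ss, Nat.card_eq_fintype_card, Fintype.card_subtype,
    Finset.card_eq_sum_card_fiberwise (f := fun g : G => zpowers g) (t := Finset.univ) fun _ _ => Finset.mem_univ _]
  refine Finset.dvd_sum fun H _ => ?_
  rcases Finset.eq_empty_or_nonempty ((Finset.univ.filter fun g : G => orderOf g = m).filter
    fun g => zpowers g = H) with e | ⟨x, hx⟩
  · rw [e]; exact dvd_zero _
  simp only [Finset.mem_filter, Finset.mem_univ, true_and] at hx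
  obtain ⟨rfl, rfl⟩ := hx
  rw [← IsCyclic.card_orderOf_eq_totient (α := zpowers x) (d := orderOf x) (by rw [Fintype.card_zpowers])]
  refine dvd_of_eq (Finset.card_bij (fun g _ => (g : G)) (fun g hg => ?_) (fun _ _ _ _ e => Subtype.ext e) fun g hg => ?_)
  · simp only [Finset.mem_filter, Finset.mem_univ, true_and] at hg ⊢
    have h1 := (orderOf_coe g).trans hg
    exact ⟨h1, eq_of_le_of_card_ge (zpowers_le.2 g.2) (by rw [Nat.card_zpowers, Nat.card_zpowers, h1])⟩
  · simp only [Finset.mem_filter, Finset.mem_univ, true_and] at hg ⊢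
    exact ⟨⟨g, hg.2 ▸ mem_zpowers g⟩, (orderOf_coe _).symm.trans hg.1, rfl⟩

theorem add_dvd (hp : p.Prime) (h : p ∣ Nat.card G) (m : ℕ) (hm : ¬ p ∣ m) : p ∣ ss G m + ss G (p * m) := by
  induction m using Nat.strong_induction_on with
  | _ m ih =>
    by_cases e : m ∣ Nat.card G
    swap
    · rw [show ss G m = 0 from by_contra fun k => e (ss_dvd k),
        show ss G (p * m) = 0 from by_contra fun k => e ((dvd_mul_left m p).trans (ss_dvd k))]
      exact dvd_zero _
    have co := (Nat.Prime.coprime_iff_not_dvd hp).2 hm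
    have a := (dvd_mul_right p m).trans (frob (co.mul_dvd_of_dvd_of_dvd h e))
    rw [sum_mul co, hp.sum_divisors, ← Finset.sum_add_distrib,
      ← Nat.insert_self_properDivisors (ne_zero_of_dvd_ne_zero Nat.card_pos.ne' e),
      Finset.sum_insert Nat.self_notMem_properDivisors, one_mul, add_comm (ss G (p * m))] at a
    refine (Nat.dvd_add_left (Finset.dvd_sum fun d hd => ?_)).1 a
    rw [one_mul, add_comm]
    exact ih d (Nat.mem_properDivisors.1 hd).2 fun k => hm (k.trans (Nat.mem_properDivisors.1 hd).1)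

theorem z_add (hp : p.Prime) (h : p ∣ Nat.card G) {m : ℕ} (hm : ¬ p ∣ m) :
    (ss G m : ZMod p) + ss G (p * m) = 0 := by
  exact_mod_cast (ZMod.natCast_eq_zero_iff _ _).2 (add_dvd hp h m hm)

theorem z_one (hp : p.Prime) (h : p ∣ Nat.card G) : (ss G p : ZMod p) + 1 = 0 := by
  exact_mod_cast (ZMod.natCast_eq_zero_iff _ _).2 (one_prime hp h rfl)

omit [Finite G] in
theorem no1 (hp : p.Prime) (h : (1 : ZMod p) = 0) : False :=
  hp.one_lt.ne' (Nat.dvd_one.1 ((ZMod.natCast_eq_zero_iff 1 p).1 (by exact_mod_cast h)))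

omit [Finite G] in
theorem no2 (hp : p.Prime) (h2 : p ≠ 2) (h : (2 : ZMod p) = 0) : False :=
  h2 ((Nat.prime_dvd_prime_iff_eq hp Nat.prime_two).1 ((ZMod.natCast_eq_zero_iff 2 p).1 (by exact_mod_cast h)))

theorem nd (hp : p.Prime) (hq : q.Prime) (h : p ≠ q) : ¬ p ∣ q := fun e => h ((Nat.prime_dvd_prime_iff_eq hp hq).1 e)

theorem vals (h : ((fun m : ℕ => Nat.card {g : G // orderOf g = m}) '' Set.range (orderOf : G → ℕ)).ncard = 3) :
    ∃ a b, ∀ m, ss G m = 0 ∨ ss G m = 1 ∨ ss G m = a ∨ ss G m = b := by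
  obtain ⟨x, y, z, -, -, -, e⟩ := Set.ncard_eq_three.1 h
  have k : ∀ m, ss G m = 0 ∨ ss G m = x ∨ ss G m = y ∨ ss G m = z := fun m =>
    or_iff_not_imp_left.2 fun h => e.le ⟨m, ss_ne.1 h, rfl⟩
  have k1 := (k 1).resolve_left (by rw [ss_one]; exact one_ne_zero)
  rw [ss_one] at k1
  rcases k1 with rfl | rfl | rfl
  · exact ⟨y, z, k⟩
  · exact ⟨x, z, fun m => by have := k m; tauto⟩
  · exact ⟨x, y, fun m => by have := k m; tauto⟩

theorem four_dvd {m : ℕ} (h1 : 2 < p) (h2 : 2 < m) (h : p.Coprime m) : 4 ∣ ss G (p * m) := by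
  refine Dvd.dvd.trans ?_ (tot_dvd _)
  rw [Nat.totient_mul h]
  exact Nat.mul_dvd_mul (Nat.totient_even h1).two_dvd (Nat.totient_even h2).two_dvd

theorem four_aux (hs : ∀ m, 2 < m → ss G m = 0 ∨ ss G m = a ∨ ss G m = b) (h4 : ss G 4 = a) (ha : a % 4 = 2)
    (hp : p.Prime) (hq : q.Prime) (p2 : p ≠ 2) (q2 : q ≠ 2) (h : p ≠ q) (pG : p ∣ Nat.card G)
    (qG : q ∣ Nat.card G) (h1 : ss G p = a) : False := by
  have p3 := hp.two_le.lt_of_ne' p2
  have q3 := hq.two_le.lt_of_ne' q2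
  have n4 : ∀ r, r.Prime → r ≠ 2 → ¬ r ∣ 4 := fun r hr r2 e =>
    nd hr Nat.prime_two r2 (hr.dvd_of_dvd_pow (n := 2) e)
  have k : ∀ r m, r.Prime → 2 < r → 2 < m → ¬ r ∣ m → ss G (r * m) = 0 ∨ ss G (r * m) = b := fun r m hr r3 m3 e => by
    have := four_dvd (G := G) r3 m3 ((Nat.Prime.coprime_iff_not_dvd hr).2 e)
    have := hs (r * m) (by nlinarith)
    omega
  have a1 := z_one hp pG
  have a2 := z_add hp pG (n4 p hp p2)
  rw [h1] at a1
  rw [h4] at a2
  have a3 : (b : ZMod p) = 1 := by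
    rcases k p 4 hp p3 (by omega) (n4 p hp p2) with e | e <;> rw [e] at a2
    · exact (no1 hp (by push_cast at a2; linear_combination a1 - a2)).elim
    · linear_combination a2 - a1
  have a4 : ∀ m, 2 < m → ¬ p ∣ m → ss G m ≠ b := fun m m3 e e1 => by
    have := z_add hp pG e
    rw [e1, a3] at this
    rcases k p m hp p3 m3 e with e2 | e2 <;> rw [e2] at this
    · exact no1 hp (by push_cast at this; linear_combination this)
    · exact no2 hp p2 (by rw [a3] at this; linear_combination this)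
  have a5 := z_one hq qG
  have a6 := z_add hq qG (n4 q hq q2)
  rw [((hs q q3).resolve_left (ss_prime hq qG)).resolve_right (a4 q q3 (nd hp hq h))] at a5
  rw [h4, (k q 4 hq q3 (by omega) (n4 q hq q2)).resolve_right (a4 _ (by omega) fun e =>
    (hp.dvd_mul.1 e).elim (nd hp hq h) (n4 p hp p2))] at a6
  exact no1 hq (by push_cast at a6; linear_combination a5 - a6)

theorem solv_aux (hs : ∀ m, ss G m = 0 ∨ ss G m = 1 ∨ ss G m = a ∨ ss G m = b) (hp : p.Prime) (hq : q.Prime)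
    (p2 : p ≠ 2) (q2 : q ≠ 2) (h : p ≠ q) (pG : p ∣ Nat.card G) (qG : q ∣ Nat.card G) (h4 : 4 ∣ Nat.card G) : False := by
  have p3 := hp.two_le.lt_of_ne' p2
  have q3 := hq.two_le.lt_of_ne' q2
  have k : ∀ m, 2 < m → ss G m = 0 ∨ ss G m = a ∨ ss G m = b := fun m e => by
    have := hs m; have := ss_ne_one (G := G) e; tauto
  have ev : ∀ m, 2 < m → 2 ∣ ss G m := fun m e => (Nat.totient_even e).two_dvd.trans (tot_dvd m)
  have h2 := one_prime Nat.prime_two ((show 2 ∣ 4 by norm_num).trans h4) rfl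
  have pq : 2 < p * q := by nlinarith
  have key : ∀ c, (∀ m, 2 < m → ss G m = 0 ∨ ss G m = c) → False := fun c hc =>
    p2 (two_primes hp hq pG qG h ((hc p p3).resolve_left (ss_prime hp pG)) ((hc q q3).resolve_left (ss_prime hq qG))
      (hc _ pq))
  have h1 : ss G 2 = 1 := by
    by_contra e
    rcases (show ss G 2 = a ∨ ss G 2 = b by have := hs 2; omega) with e | e
    · exact key b fun m hm => by have := k m hm; have := ev m hm; omega
    · exact key a fun m hm => by have := k m hm; have := ev m hm; omega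
  have h3 := frob h4
  rw [show Nat.divisors 4 = {1, 2, 4} by decide] at h3
  simp only [Finset.mem_insert, Finset.mem_singleton, Finset.sum_insert, Finset.sum_singleton, ss_one, h1,
    OfNat.one_ne_ofNat, or_self, not_false_eq_true, Nat.reduceEqDiff] at h3
  have aux : ∀ a b, (∀ m, 2 < m → ss G m = 0 ∨ ss G m = a ∨ ss G m = b) → ss G 4 = a → False := fun a b k e => by
    have e4 : a % 4 = 2 := by omega
    by_cases e1 : ss G p = a
    · exact four_aux k e e4 hp hq p2 q2 h pG qG e1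
    by_cases e2 : ss G q = a
    · exact four_aux k e e4 hq hp q2 p2 h.symm qG pG e2
    have := four_dvd (G := G) p3 q3 ((Nat.coprime_primes hp hq).2 h)
    exact p2 (two_primes (n := b) hp hq pG qG h (by have := k p p3; have := ss_prime hp pG; omega)
      (by have := k q q3; have := ss_prime hq qG; omega) (by have := k _ pq; omega))
  rcases (show ss G 4 = a ∨ ss G 4 = b by have := k 4 (by omega); omega) with e | e
  · exact aux a b k e
  · exact aux b a (fun m hm => by have := k m hm; tauto) e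

theorem solv (hs : ∀ m, ss G m = 0 ∨ ss G m = 1 ∨ ss G m = a ∨ ss G m = b) : Group.IsSolvable G := by
  by_cases h4 : 4 ∣ Nat.card G
  · by_contra hn
    by_cases e : ∃ p, p.Prime ∧ p ∣ Nat.card G ∧ p ≠ 2
    · obtain ⟨p, hp, pG, p2⟩ := e
      refine hn (CChar.CharBurn.isSolvable_of_primes (p := 2) (q := p) fun q hq qG => by_contra fun e => ?_)
      push Not at e
      exact solv_aux hs hp hq p2 e.1 e.2.symm pG qG h4
    · push Not at e
      exact hn (CChar.CharBurn.isSolvable_of_primes (p := 2) (q := 2) fun q hq qG => Or.inl (e q hq qG))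
  · obtain ⟨S, hS⟩ := syl_exists Nat.prime_two (⊤ : Subgroup G)
    obtain ⟨k, hk⟩ := hS.pi.exists_card Nat.prime_two
    have h2 : ♯S ∣ 2 := by
      rcases k with _ | _ | k
      · simp [hk]
      · simp [hk]
      · exact absurd ((pow_dvd_pow 2 (by omega : 2 ≤ k + 1 + 1)).trans (hk ▸ S.card_subgroup_dvd_card)) h4
    haveI := Fact.mk Nat.prime_two
    haveI := HasPC.solv2 (hasPC_of_cyc hS (isCyclic_of_card_dvd_prime h2))
    exact Group.isSolvable_of_surjective (f := (⊤ : Subgroup G).subtype) fun x => ⟨⟨x, trivial⟩, rfl⟩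

theorem sq_dvd (hp : p.Prime) : p ∣ ss G (p ^ 2) := by
  refine Dvd.dvd.trans ?_ (tot_dvd _)
  rw [Nat.totient_prime_pow hp two_pos]
  exact Dvd.intro (p - 1) (by simp)

theorem three_le (hp : p.Prime) (hq : q.Prime) (h : p ≠ q) (pG : p ∣ Nat.card G) (qG : q ∣ Nat.card G) :
    1 + ss G p + ss G q ≤ Nat.card G := by
  classical
  haveI := Fintype.ofFinite G
  have b := sum_card_orderOf_eq_card_pow_eq_one (G := G) (n := Nat.card G) Nat.card_pos.ne'
  have c : ({1, p, q} : Finset ℕ) ⊆ (Nat.card G).divisors := by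
    intro d hd
    simp only [Finset.mem_insert, Finset.mem_singleton] at hd
    rcases hd with rfl | rfl | rfl <;> exact Nat.mem_divisors.2 ⟨by first | assumption | exact one_dvd _, Nat.card_pos.ne'⟩
  have d := Finset.sum_le_sum_of_subset (f := ss G) c
  rw [Finset.sum_insert (by simp [hp.one_lt.ne, hq.one_lt.ne]), Finset.sum_pair h, ss_one, ← add_assoc] at d
  refine d.trans ?_
  simp only [ss, Nat.card_eq_fintype_card, Fintype.card_subtype] at b ⊢
  rw [b]; exact Finset.card_le_univ _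

theorem ex_fix (hp : p.Prime) {P : Subgroup G} (hP : IsPi {p} P) (h : ¬ p ∣ ss G m) :
    ∃ x : G, orderOf x = m ∧ x ∈ 𝓒(P) := by
  haveI := Fact.mk hp
  letI : MulAction P {g : G // orderOf g = m} :=
    { smul := fun a x => ⟨a * x * (a : G)⁻¹, ((MulAut.conj (a : G)).orderOf_eq _).trans x.2⟩
      one_smul := fun x => Subtype.ext (show ((1 : P) : G) * x * ((1 : P) : G)⁻¹ = x by simp)
      mul_smul := fun a b x => Subtype.ext (show ((a * b : P) : G) * x * ((a * b : P) : G)⁻¹ =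
        a * (b * x * (b : G)⁻¹) * (a : G)⁻¹ by simp [mul_assoc]) }
  obtain ⟨x, hx⟩ := ((isPi_iff_isPGroup hp).1 hP).nonempty_fixed_point_of_prime_not_dvd_card
    {g : G // orderOf g = m} h
  exact ⟨x, x.2, mem_cent.2 fun k hk => mul_inv_eq_iff_eq_mul.1 (congrArg Subtype.val (hx ⟨k, hk⟩))⟩

theorem pow_mem_of_coset {H : Subgroup G} {k y : G} (hk : k ∈ H) (hy : y ∈ 𝓝(H)) (n : ℕ) :
    (k * y) ^ n * (y ^ n)⁻¹ ∈ H := by
  induction n with
  | zero => simp
  | succ n ih =>
    rw [show (k * y) ^ (n + 1) * (y ^ (n + 1))⁻¹ = k * (y * ((k * y) ^ n * (y ^ n)⁻¹) * y⁻¹) by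
      rw [pow_succ', pow_succ']; group]
    exact mul_mem hk (conj_mem_of_mem_norm hy ih)

section odd

variable (ho : Odd (Nat.card G))
include ho

theorem ne2 (pG : p ∣ Nat.card G) : p ≠ 2 := fun e => ho.not_two_dvd_nat (e ▸ pG)

theorem vals' (hs : ∀ m, ss G m = 0 ∨ ss G m = 1 ∨ ss G m = a ∨ ss G m = b) (m : ℕ) (hm : 1 < m) :
    ss G m = 0 ∨ ss G m = a ∨ ss G m = b := by
  by_cases e : ss G m = 0
  · exact Or.inl e
  · have := hs m
    have := ss_ne_one (G := G) (show 2 < m by have := ne2 ho (ss_dvd e); omega)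
    tauto

theorem inj_aux (hs : ∀ m, 1 < m → ss G m = 0 ∨ ss G m = a ∨ ss G m = b) (hp : p.Prime) (hq : q.Prime) (h : p ≠ q)
    (pG : p ∣ Nat.card G) (qG : q ∣ Nat.card G) (h1 : ss G p = a) (h2 : ss G q = a) : False := by
  have k : ∀ p q, p.Prime → q.Prime → p ≠ q → p ∣ Nat.card G → ss G p = a → ss G q = a →
      ss G (p * q) = b ∧ (a : ZMod p) + 1 = 0 ∧ (b : ZMod p) = 1 := fun p q hp hq h pG h1 h2 => by
    have a1 := z_one hp pG
    have a2 := z_add hp pG (nd hp hq h)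
    rw [h1] at a1
    rw [h2] at a2
    rcases hs (p * q) (Nat.one_lt_mul_iff.2 ⟨hp.pos, hq.pos, .inl hp.one_lt⟩) with e | e | e <;> rw [e] at a2
    · exact (no1 hp (by push_cast at a2; linear_combination a1 - a2)).elim
    · exact (no2 hp (ne2 ho pG) (by linear_combination 2 * a1 - a2)).elim
    · exact ⟨e, a1, by linear_combination a2 - a1⟩
  have v : ∀ p m, p.Prime → p ∣ Nat.card G → (a : ZMod p) + 1 = 0 → (b : ZMod p) = 1 → 1 < m →
      ((ss G m : ZMod p) = 0 → ss G m = 0) ∧ ((ss G m : ZMod p) + 1 = 0 → ss G m = a) ∧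
        ((ss G m : ZMod p) = 1 → ss G m = b) := fun p m hp pG a1 a2 hm => by
    have n1 := no1 hp
    have n2 := no2 hp (ne2 ho pG)
    rcases hs m hm with e | e | e <;> rw [e] <;> refine ⟨fun e => ?_, fun e => ?_, fun e => ?_⟩ <;>
      first | rfl | exfalso
    · exact n1 (by simpa using e)
    · exact n1 (by simpa using e.symm)
    · exact n1 (by linear_combination a1 - e)
    · exact n2 (by linear_combination a1 - e)
    · exact n1 (by linear_combination e - a2)
    · exact n2 (by linear_combination e - a2)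
  obtain ⟨b1, b2, b3⟩ := k p q hp hq h pG h1 h2
  obtain ⟨-, b4, b5⟩ := k q p hq hp h.symm qG h2 h1
  have all : ∀ t, t.Prime → t ∣ Nat.card G → ss G t = a := fun t ht tG => by
    by_contra e
    have e1 := ((hs t ht.one_lt).resolve_left (ss_prime ht tG)).resolve_left e
    have tp : p ≠ t := fun e' => e (e' ▸ h1)
    have tq : q ≠ t := fun e' => e (e' ▸ h2)
    have lt : ∀ {x y}, 1 < x → 0 < y → 1 < x * y := fun a b => Nat.one_lt_mul_iff.2 ⟨by omega, b, .inl a⟩
    have c1 := z_add hq qG (nd hq ht tq)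
    rw [e1, b5] at c1
    have c2 := (v q _ hq qG b4 b5 (lt hq.one_lt ht.pos)).2.1 (by linear_combination c1)
    have c3 := z_add hp pG (m := q * t) fun e => (hp.dvd_mul.1 e).elim (nd hp hq h) (nd hp ht tp)
    rw [c2] at c3
    have c4 := (v p _ hp pG b2 b3 (lt hp.one_lt (Nat.mul_pos hq.pos ht.pos))).2.2 (by linear_combination c3 - b2)
    have c5 := z_add ht tG (m := p * q) fun e => (ht.dvd_mul.1 e).elim (nd ht hp tp.symm) (nd ht hq tq.symm)
    have c6 := z_one ht tG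
    rw [mul_comm t, mul_assoc, ← mul_assoc, b1, mul_assoc, c4] at c5
    rw [e1] at c6
    exact no2 ht (ne2 ho tG) (by linear_combination 2 * c6 - c5)
  have hd : Nat.card G ∣ a + 1 := (Nat.dvd_iff_prime_pow_dvd_dvd _ _).2 fun t j ht e => by
    rcases j with _ | j
    · simp
    have tG := (dvd_pow_self t j.succ_ne_zero).trans e
    obtain ⟨c1, c2⟩ : (a : ZMod t) + 1 = 0 ∧ (b : ZMod t) = 1 := by
      by_cases e : t = p
      · exact (k t q ht hq (e ▸ h) tG (all t ht tG) h2).2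
      · exact (k t p ht hp e tG (all t ht tG) h1).2
    have c3 := (v t _ ht tG c1 c2 (Nat.one_lt_pow two_ne_zero ht.one_lt)).1
      ((ZMod.natCast_eq_zero_iff _ _).2 (sq_dvd ht))
    have c4 := frob e
    rw [Nat.sum_divisors_prime_pow ht, Finset.sum_range_succ', Finset.sum_range_succ', Finset.sum_eq_zero
      fun i _ => by_contra fun e => by
        obtain ⟨g, hg⟩ := ss_ne.1 e
        exact ss_ne_of_dvd (g := g) (hg ▸ pow_dvd_pow t (by omega)) c3] at c4
    simpa [ss_one, all t ht tG] using c4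
  have := Nat.le_of_dvd a.succ_pos hd
  have := three_le hp hq h pG qG
  have := ss_prime hp pG
  omega

theorem inj (hs : ∀ m, 1 < m → ss G m = 0 ∨ ss G m = a ∨ ss G m = b) (hp : p.Prime) (hq : q.Prime) (h : p ≠ q)
    (pG : p ∣ Nat.card G) (qG : q ∣ Nat.card G) : ss G p ≠ ss G q := fun e => by
  rcases (hs p hp.one_lt).resolve_left (ss_prime hp pG) with e1 | e1
  · exact inj_aux ho hs hp hq h pG qG e1 (e ▸ e1)
  · exact inj_aux ho (fun m hm => by have := hs m hm; tauto) hp hq h pG qG e1 (e ▸ e1)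

theorem pq_ne (hp : p.Prime) (hq : q.Prime) (h : p ≠ q) (pG : p ∣ Nat.card G) (qG : q ∣ Nat.card G) :
    ss G (p * q) ≠ ss G p := fun e => by
  obtain ⟨P, hP⟩ := syl_exists hp (⊤ : Subgroup G)
  obtain ⟨x, hx, hc⟩ := ex_fix (m := p * q) hp hP.pi fun k => hp.one_lt.ne' (Nat.dvd_one.1
    ((Nat.dvd_add_right (e ▸ k)).1 (one_prime hp pG rfl)))
  have hw : orderOf (x ^ p) = q := by
    rw [orderOf_pow_of_dvd hp.ne_zero (hx ▸ dvd_mul_right p q), hx, Nat.mul_div_cancel_left _ hp.pos]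
  have co := (Nat.coprime_primes hp hq).2 h
  have : ∀ y : {g : G // orderOf g = p}, ∃ w : G, orderOf w = q ∧ Commute y.1 w := fun y => by
    obtain ⟨g, -, hg⟩ := hP.syl_le_conj hp (isPi_of_card_eq_pow (H := zpowers y.1) hp (k := 1)
      (by rw [Nat.card_zpowers, y.2, pow_one])) le_top
    obtain ⟨u, hu, e⟩ := mem_cj'.1 (hg (mem_zpowers _))
    refine ⟨g * x ^ p * g⁻¹, ((MulAut.conj g).orderOf_eq _).trans hw, ?_⟩
    show _ * _ = _ * _
    rw [← e, conj_mul, conj_mul, mem_cent.1 (pow_mem hc p) u hu]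
  choose w w1 w2 using this
  have w3 : ∀ y (s : Bool), orderOf (bif s then w y else (w y)⁻¹) = q ∧ Commute y.1 (bif s then w y else (w y)⁻¹) :=
    fun y s => by cases s; exacts [⟨(orderOf_inv _).trans (w1 y), (w2 y).inv_right⟩, ⟨w1 y, w2 y⟩]
  have := Nat.card_le_card_of_injective (fun t : {g : G // orderOf g = p} × Bool =>
    (⟨t.1.1 * (bif t.2 then w t.1 else (w t.1)⁻¹), by
      rw [(w3 _ _).2.orderOf_mul_eq_mul_orderOf_of_coprime (by rw [t.1.2, (w3 _ _).1]; exact co), t.1.2,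
        (w3 _ _).1]⟩ : {g : G // orderOf g = p * q})) (by
    rintro ⟨y, s⟩ ⟨y', s'⟩ e
    have e1 : y.1 * (bif s then w y else (w y)⁻¹) = y'.1 * (bif s' then w y' else (w y')⁻¹) := congrArg Subtype.val e
    have e2 := congrArg (· ^ q) e1
    simp only [(w3 _ _).2.mul_pow, orderOf_dvd_iff_pow_eq_one.1 (dvd_of_eq (w3 _ _).1), mul_one] at e2
    obtain ⟨k, hk⟩ := Nat.exists_mul_mod_eq_one_of_coprime co.symm hp.one_lt
    have e3 : ∀ y : {g : G // orderOf g = p}, (y.1 ^ q) ^ k = y.1 := fun y => by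
      rw [← pow_mul, ← pow_mod_orderOf, y.2, hk.2, pow_one]
    obtain rfl : y = y' := Subtype.ext (by rw [← e3 y, e2, e3])
    have e4 := mul_left_cancel e1
    have e5 : w y ≠ (w y)⁻¹ := fun e => ne2 ho qG ((w1 y).symm.trans (ord_two (mul_eq_one_iff_eq_inv.2 e)
      fun e => hq.one_lt.ne' (by rw [← w1 y, e, orderOf_one])))
    cases s <;> cases s' <;> first | rfl | exact absurd e4 e5 | exact absurd e4.symm e5)
  rw [Nat.card_prod, Nat.card_eq_fintype_card (α := Bool), Fintype.card_bool] at this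
  have h1 := ss_prime hp pG
  unfold ss at e h1
  omega

theorem no_comm (hq : q.Prime) (h : p ≠ q) (hp : p.Prime) (h0 : ss G (p * q) = 0) {x y : G} (hx : p ∣ orderOf x)
    (hy : orderOf y = q) (e : Commute x y) : False := by
  have h1 := orderOf_pow_orderOf_div (orderOf_pos x).ne' hx
  exact ss_ne.2 ⟨_, by rw [(e.pow_left _).orderOf_mul_eq_mul_orderOf_of_coprime
    (by rw [h1, hy]; exact (Nat.coprime_primes hp hq).2 h), h1, hy]⟩ h0

theorem two (hs : ∀ m, 1 < m → ss G m = 0 ∨ ss G m = a ∨ ss G m = b) (hp : p.Prime) (hq : q.Prime) (h : p ≠ q)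
    (pG : p ∣ Nat.card G) (qG : q ∣ Nat.card G) : ss G (p * q) = 0 ∧ ss G (p ^ 2) = 0 := by
  have h1 := inj ho hs hp hq h pG qG
  have h2 := (hs p hp.one_lt).resolve_left (ss_prime hp pG)
  have h3 := (hs q hq.one_lt).resolve_left (ss_prime hq qG)
  have h4 : ss G (p * q) = 0 := by
    have := hs (p * q) (Nat.one_lt_mul_iff.2 ⟨hp.pos, hq.pos, .inl hp.one_lt⟩)
    have := pq_ne ho hp hq h pG qG
    have := pq_ne ho hq hp h.symm qG pG
    rw [mul_comm] at this
    omega
  refine ⟨h4, by_contra fun e => ?_⟩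
  have h5 : ss G (p ^ 2) ≠ ss G p := fun k => hp.one_lt.ne' (Nat.dvd_one.1
    ((Nat.dvd_add_right (k ▸ sq_dvd hp)).1 (one_prime hp pG rfl)))
  have h6 : ss G (p ^ 2) = ss G q := by
    have := hs (p ^ 2) (Nat.one_lt_pow two_ne_zero hp.one_lt); omega
  obtain ⟨y, -, hy⟩ := exists_orderOf_eq (H := (⊤ : Subgroup G)) hq (by rwa [card_top])
  obtain ⟨x, hx, hc⟩ := ex_fix (m := p ^ 2) hq (isPi_of_card_eq_pow (H := zpowers y) hq (k := 1)
    (by rw [Nat.card_zpowers, hy, pow_one])) fun k => hq.one_lt.ne' (Nat.dvd_one.1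
    ((Nat.dvd_add_right (h6 ▸ k)).1 (one_prime hq qG rfl)))
  exact no_comm ho hq h hp h4 (hx ▸ dvd_pow_self p two_ne_zero) hy (mem_cent.1 hc y (mem_zpowers y)).symm

theorem frob_aux (hp : p.Prime) (hq : q.Prime) (h : p ≠ q) (pG : p ∣ Nat.card G) (qG : q ∣ Nat.card G)
    (hr : ∀ r, r.Prime → r ∣ Nat.card G → r = p ∨ r = q) (h0 : ss G (p * q) = 0) (h1 : ss G (p ^ 2) = 0)
    (h2 : ss G (q ^ 2) = 0) (hK : 𝓞({p}, (⊤ : Subgroup G)) ≠ ⊥) :
    ∃ C : Subgroup G, IsFrobeniusComplement C ∧ (♯C).Prime := by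
  set K := 𝓞({p}, (⊤ : Subgroup G))
  have hn : ∀ H : Subgroup G, H ≤ 𝓝(K) := fun _ => le_top.trans (le_norm_core _ _)
  have kp : IsPi {p} K := core_pi _ _
  obtain ⟨Q, hQ⟩ := syl_exists hq (⊤ : Subgroup G)
  obtain ⟨j, hj⟩ := hQ.pi.exists_card hq
  have oq : ∀ y ∈ Q, y ≠ 1 → orderOf y = q := fun y hy y1 =>
    ord_eq hq h2 (k := j) (orderOf_dvd_iff_pow_eq_one.1 (hj ▸ orderOf_dvd_natCard Q hy)) y1
  have op : ∀ x ∈ K, x ≠ 1 → p ∣ orderOf x := fun x hx x1 => by
    obtain ⟨r, hr, e⟩ := Nat.exists_prime_and_dvd (mt orderOf_eq_one_iff.1 x1)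
    exact (kp r hr (e.trans (orderOf_dvd_natCard K hx)) : r = p) ▸ e
  have sr : SemiReg K Q := fun y hy y1 => eq_bot_iff.2 fun x hx => by_contra fun x1 =>
    no_comm ho hq h hp h0 (op x hx.1 x1) (oq y hy y1) (mem_cent1.1 hx.2)
  obtain ⟨w, rfl⟩ := exists_zpowers_of_cyc (odd_regular_pgroup_cyclic hq hQ.pi
    (ho.of_dvd_nat Q.card_subgroup_dvd_card) hK (hn Q) sr)
  have w1 : w ≠ 1 := fun e => hQ.not_dvd hq (by rwa [e, zpowers_one_eq_bot, relIndex_bot_left, card_top])
  have hw := oq w (mem_zpowers w) w1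
  have cw : ♯(zpowers w) = q := (Nat.card_zpowers w).trans hw
  refine ⟨zpowers w, Frob.isFrob_iff.2 ⟨zpowers_ne_bot.2 w1, fun e => nd hp hq h (by rwa [← cw, e, card_top]),
    fun g x hx x1 e => ?_⟩, cw ▸ hq⟩
  haveI := Fact.mk (cw ▸ hq : (♯(zpowers w)).Prime)
  have e1 : ∀ y ∈ zpowers w, y ≠ 1 → zpowers y = zpowers w := fun y hy y1 =>
    eq_of_le_of_card_ge (zpowers_le.2 hy) (by rw [cw, Nat.card_zpowers, oq y hy y1])
  have hg : g ∈ 𝓝(zpowers w) := mem_norm_iff_cj.2 (by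
    rw [← e1 x hx x1, cj_zpowers, e1 x hx x1, e1 _ e fun e => x1 (conj_eq_one_iff.1 e)])
  by_contra hn'
  obtain ⟨y, hy, oy⟩ : ∃ y ∈ 𝓝(zpowers w), orderOf y = p := exists_orderOf_eq hp (by
    by_contra e
    exact hn' (hQ.le_of_norm (fun r hr' hd => (hr r hr' (hd.trans (card_subgroup_dvd_card _))).resolve_left
      fun k => e (k ▸ hd)) le_top le_rfl hg))
  have yH : y ∉ zpowers w ⊔ K := fun k0 => by
    obtain ⟨u, hu, k, hk, rfl⟩ := (mem_sup_norm (hn _)).1 k0
    have a1 : k ∈ 𝓝(zpowers w) := by simpa using mul_mem (inv_mem (le_normalizer hu)) hy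
    have a2 : k * w * k⁻¹ * w⁻¹ = 1 := (kp.inf_eq_bot (hQ.pi.mono fun r (e : r = q) (k : r = p) => h (k ▸ e))).le
      ⟨by simpa [mul_assoc] using K.mul_mem hk (conj_mem_of_mem_norm (hn ⊤ (mem_top w)) (K.inv_mem hk)),
        (zpowers w).mul_mem (conj_mem_of_mem_norm a1 (mem_zpowers w)) ((zpowers w).inv_mem (mem_zpowers w))⟩
    have a3 : k = 1 := (sr w (mem_zpowers w) w1).le ⟨hk, mem_cent1.2 (mul_inv_eq_iff_eq_mul.1 (mul_inv_eq_one.1 a2))⟩
    rw [a3, mul_one] at oy
    exact nd hp hq h (oy ▸ cw ▸ orderOf_dvd_natCard _ hu)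
  have yN : y ∈ 𝓝(zpowers w ⊔ K) := mem_norm_sup hy (hn ⊤ (mem_top y))
  have nil := Kegel.isNilpotent_of_coset_pow yN hp fun k hk => by
    have a1 : (k * y) ^ q ≠ 1 := fun e => yH (by
      have a := pow_mem_of_coset hk yN q
      rw [e, one_mul, inv_mem_iff] at a
      obtain ⟨i, hi⟩ := Nat.exists_mul_mod_eq_one_of_coprime ((Nat.coprime_primes hq hp).2 h.symm) hp.one_lt
      rw [← pow_one y, ← hi.2, ← oy, pow_mod_orderOf, pow_mul]
      exact pow_mem a _)
    by_cases a2 : q ∣ orderOf (k * y)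
    · by_cases a3 : p ∣ orderOf (k * y)
      · exact (ss_ne_of_dvd (((Nat.coprime_primes hp hq).2 h).mul_dvd_of_dvd_of_dvd a3 a2) h0).elim
      · obtain ⟨i, hi⟩ : ∃ i, orderOf (k * y) = q ^ i := ⟨_, Nat.eq_prime_pow_of_unique_prime_dvd (orderOf_pos _).ne'
          fun {r} a b => (hr r a (b.trans (orderOf_dvd_natCard _))).resolve_left fun e => a3 (e ▸ b)⟩
        exact absurd (orderOf_dvd_iff_pow_eq_one.1 (dvd_of_eq (ord_eq hq h2 (orderOf_dvd_iff_pow_eq_one.1
          (dvd_of_eq hi)) fun e => a1 (by rw [e, one_pow])))) a1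
    · obtain ⟨i, hi⟩ : ∃ i, orderOf (k * y) = p ^ i := ⟨_, Nat.eq_prime_pow_of_unique_prime_dvd (orderOf_pos _).ne'
          fun {r} a b => (hr r a (b.trans (orderOf_dvd_natCard _))).resolve_right fun e => a2 (e ▸ b)⟩
      exact orderOf_dvd_iff_pow_eq_one.1 (dvd_of_eq (ord_eq hp h1 (orderOf_dvd_iff_pow_eq_one.1
          (dvd_of_eq hi)) fun e => a1 (by rw [e, one_pow])))
  have := cent_of_nil nil le_sup_right le_sup_left kp (hQ.pi.mono fun r (e : r = q) (k : r = p) => h (k ▸ e))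
  exact hK (eq_bot_iff.2 fun k hk => (sr w (mem_zpowers w) w1).le
    ⟨hk, mem_cent1.2 (mem_cent.1 (this hk) w (mem_zpowers w)).symm⟩)

end odd

end CA.Ss3
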